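import Cfsg.Agent.Fi24Mult30.Table

/-! Generated: checks of the voltages. -/

set_option autoImplicit false
set_option maxRecDepth 100000

namespace CfsgLib.Fi24Mult30.Tab

open CfsgLib.CosetEnum

theorem branch0 : allFrom checkVBranch 0 1024 = true := by
  decide +kernel

theorem branch1024 : allFrom checkVBranch 1024 1024 = true := by
  decide +kernel

theorem branch2048 : allFrom checkVBranch 2048 1024 = true := by
  decide +kernel

theorem branch3072 : allFrom checkVBranch 3072 1024 = true := by
  decide +kernel

theorem branch4096 : allFrom checkVBranch 4096 1024 = true := by
  decide +kernel

theorem branch5120 : allFrom checkVBranch 5120 1024 = true := by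
  decide +kernel

theorem branch6144 : allFrom checkVBranch 6144 1024 = true := by
  decide +kernel

theorem branch7168 : allFrom checkVBranch 7168 1024 = true := by
  decide +kernel

theorem branch8192 : allFrom checkVBranch 8192 1024 = true := by
  decide +kernel

theorem branch9216 : allFrom checkVBranch 9216 1024 = true := by
  decide +kernel

end CfsgLib.Fi24Mult30.Tab
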