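import Cfsg.Agent.Fi24Mult30.Table

/-! Generated: checks of the voltages. -/

set_option autoImplicit false
set_option maxRecDepth 100000

namespace CfsgLib.Fi24Mult30.Tab

open CfsgLib.CosetEnum

theorem branch10240 : allFrom checkVBranch 10240 1024 = true := by
  decide +kernel

theorem branch11264 : allFrom checkVBranch 11264 1024 = true := by
  decide +kernel

theorem branch12288 : allFrom checkVBranch 12288 1024 = true := by
  decide +kernel

theorem branch13312 : allFrom checkVBranch 13312 1024 = true := by
  decide +kernel

theorem branch14336 : allFrom checkVBranch 14336 1024 = true := by
  decide +kernel

theorem branch15360 : allFrom checkVBranch 15360 1024 = true := by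
  decide +kernel

theorem branch16384 : allFrom checkVBranch 16384 1024 = true := by
  decide +kernel

theorem branch17408 : allFrom checkVBranch 17408 1024 = true := by
  decide +kernel

theorem branch18432 : allFrom checkVBranch 18432 1024 = true := by
  decide +kernel

theorem branch19456 : allFrom checkVBranch 19456 1024 = true := by
  decide +kernel

end CfsgLib.Fi24Mult30.Tab
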