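import Cfsg.Agent.Fi24Mult30.Table

/-! Generated: checks of the voltages. -/

set_option autoImplicit false
set_option maxRecDepth 100000

namespace CfsgLib.Fi24Mult30.Tab

open CfsgLib.CosetEnum

theorem branch102400 : allFrom checkVBranch 102400 1024 = true := by
  decide +kernel

theorem branch103424 : allFrom checkVBranch 103424 1024 = true := by
  decide +kernel

theorem branch104448 : allFrom checkVBranch 104448 1024 = true := by
  decide +kernel

theorem branch105472 : allFrom checkVBranch 105472 1024 = true := by
  decide +kernel

theorem branch106496 : allFrom checkVBranch 106496 1024 = true := by
  decide +kernel

theorem branch107520 : allFrom checkVBranch 107520 1024 = true := by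
  decide +kernel

theorem branch108544 : allFrom checkVBranch 108544 1024 = true := by
  decide +kernel

theorem branch109568 : allFrom checkVBranch 109568 1024 = true := by
  decide +kernel

theorem branch110592 : allFrom checkVBranch 110592 1024 = true := by
  decide +kernel

theorem branch111616 : allFrom checkVBranch 111616 1024 = true := by
  decide +kernel

end CfsgLib.Fi24Mult30.Tab
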