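import Cfsg.Agent.Fi24Mult30.Table

/-! Generated: checks of the voltages. -/

set_option autoImplicit false
set_option maxRecDepth 100000

namespace CfsgLib.Fi24Mult30.Tab

open CfsgLib.CosetEnum

theorem branch112640 : allFrom checkVBranch 112640 1024 = true := by
  decide +kernel

theorem branch113664 : allFrom checkVBranch 113664 1024 = true := by
  decide +kernel

theorem branch114688 : allFrom checkVBranch 114688 1024 = true := by
  decide +kernel

theorem branch115712 : allFrom checkVBranch 115712 1024 = true := by
  decide +kernel

theorem branch116736 : allFrom checkVBranch 116736 1024 = true := by
  decide +kernel

theorem branch117760 : allFrom checkVBranch 117760 1024 = true := by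
  decide +kernel

theorem branch118784 : allFrom checkVBranch 118784 1024 = true := by
  decide +kernel

theorem branch119808 : allFrom checkVBranch 119808 1024 = true := by
  decide +kernel

theorem branch120832 : allFrom checkVBranch 120832 1024 = true := by
  decide +kernel

theorem branch121856 : allFrom checkVBranch 121856 1024 = true := by
  decide +kernel

end CfsgLib.Fi24Mult30.Tab
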