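import Cfsg.Agent.Fi24Mult30.Table

/-! Generated: checks of the voltages. -/

set_option autoImplicit false
set_option maxRecDepth 100000

namespace CfsgLib.Fi24Mult30.Tab

open CfsgLib.CosetEnum

theorem branch122880 : allFrom checkVBranch 122880 1024 = true := by
  decide +kernel

theorem branch123904 : allFrom checkVBranch 123904 1024 = true := by
  decide +kernel

theorem branch124928 : allFrom checkVBranch 124928 1024 = true := by
  decide +kernel

theorem branch125952 : allFrom checkVBranch 125952 1024 = true := by
  decide +kernel

theorem branch126976 : allFrom checkVBranch 126976 1024 = true := by
  decide +kernel

theorem branch128000 : allFrom checkVBranch 128000 1024 = true := by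
  decide +kernel

theorem branch129024 : allFrom checkVBranch 129024 1024 = true := by
  decide +kernel

theorem branch130048 : allFrom checkVBranch 130048 1024 = true := by
  decide +kernel

theorem branch131072 : allFrom checkVBranch 131072 1024 = true := by
  decide +kernel

theorem branch132096 : allFrom checkVBranch 132096 1024 = true := by
  decide +kernel

end CfsgLib.Fi24Mult30.Tab
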