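import Cfsg.Agent.Fi24Mult30.Table

/-! Generated: checks of the voltages. -/

set_option autoImplicit false
set_option maxRecDepth 100000

namespace CfsgLib.Fi24Mult30.Tab

open CfsgLib.CosetEnum

theorem branch133120 : allFrom checkVBranch 133120 1024 = true := by
  decide +kernel

theorem branch134144 : allFrom checkVBranch 134144 1024 = true := by
  decide +kernel

theorem branch135168 : allFrom checkVBranch 135168 1024 = true := by
  decide +kernel

theorem branch136192 : allFrom checkVBranch 136192 1024 = true := by
  decide +kernel

theorem branch137216 : allFrom checkVBranch 137216 1024 = true := by
  decide +kernel

theorem branch138240 : allFrom checkVBranch 138240 1024 = true := by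
  decide +kernel

theorem branch139264 : allFrom checkVBranch 139264 1024 = true := by
  decide +kernel

theorem branch140288 : allFrom checkVBranch 140288 1024 = true := by
  decide +kernel

theorem branch141312 : allFrom checkVBranch 141312 1024 = true := by
  decide +kernel

theorem branch142336 : allFrom checkVBranch 142336 1024 = true := by
  decide +kernel

end CfsgLib.Fi24Mult30.Tab
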