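import Cfsg.Agent.Fi24Mult30.Table

/-! Generated: checks of the voltages. -/

set_option autoImplicit false
set_option maxRecDepth 100000

namespace CfsgLib.Fi24Mult30.Tab

open CfsgLib.CosetEnum

theorem branch143360 : allFrom checkVBranch 143360 1024 = true := by
  decide +kernel

theorem branch144384 : allFrom checkVBranch 144384 1024 = true := by
  decide +kernel

theorem branch145408 : allFrom checkVBranch 145408 1024 = true := by
  decide +kernel

theorem branch146432 : allFrom checkVBranch 146432 1024 = true := by
  decide +kernel

theorem branch147456 : allFrom checkVBranch 147456 1024 = true := by
  decide +kernel

theorem branch148480 : allFrom checkVBranch 148480 1024 = true := by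
  decide +kernel

theorem branch149504 : allFrom checkVBranch 149504 1024 = true := by
  decide +kernel

theorem branch150528 : allFrom checkVBranch 150528 1024 = true := by
  decide +kernel

theorem branch151552 : allFrom checkVBranch 151552 1024 = true := by
  decide +kernel

theorem branch152576 : allFrom checkVBranch 152576 1024 = true := by
  decide +kernel

end CfsgLib.Fi24Mult30.Tab
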