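import Cfsg.Agent.Fi24Mult30.Table

/-! Generated: checks of the voltages. -/

set_option autoImplicit false
set_option maxRecDepth 100000

namespace CfsgLib.Fi24Mult30.Tab

open CfsgLib.CosetEnum

theorem branch153600 : allFrom checkVBranch 153600 1024 = true := by
  decide +kernel

theorem branch154624 : allFrom checkVBranch 154624 1024 = true := by
  decide +kernel

theorem branch155648 : allFrom checkVBranch 155648 1024 = true := by
  decide +kernel

theorem branch156672 : allFrom checkVBranch 156672 1024 = true := by
  decide +kernel

theorem branch157696 : allFrom checkVBranch 157696 1024 = true := by
  decide +kernel

theorem branch158720 : allFrom checkVBranch 158720 1024 = true := by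
  decide +kernel

theorem branch159744 : allFrom checkVBranch 159744 1024 = true := by
  decide +kernel

theorem branch160768 : allFrom checkVBranch 160768 1024 = true := by
  decide +kernel

theorem branch161792 : allFrom checkVBranch 161792 1024 = true := by
  decide +kernel

theorem branch162816 : allFrom checkVBranch 162816 1024 = true := by
  decide +kernel

end CfsgLib.Fi24Mult30.Tab
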