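import Cfsg.Agent.Fi24Mult30.Table

/-! Generated: checks of the voltages. -/

set_option autoImplicit false
set_option maxRecDepth 100000

namespace CfsgLib.Fi24Mult30.Tab

open CfsgLib.CosetEnum

theorem branch163840 : allFrom checkVBranch 163840 1024 = true := by
  decide +kernel

theorem branch164864 : allFrom checkVBranch 164864 1024 = true := by
  decide +kernel

theorem branch165888 : allFrom checkVBranch 165888 1024 = true := by
  decide +kernel

theorem branch166912 : allFrom checkVBranch 166912 1024 = true := by
  decide +kernel

theorem branch167936 : allFrom checkVBranch 167936 1024 = true := by
  decide +kernel

theorem branch168960 : allFrom checkVBranch 168960 1024 = true := by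
  decide +kernel

theorem branch169984 : allFrom checkVBranch 169984 1024 = true := by
  decide +kernel

theorem branch171008 : allFrom checkVBranch 171008 1024 = true := by
  decide +kernel

theorem branch172032 : allFrom checkVBranch 172032 1024 = true := by
  decide +kernel

theorem branch173056 : allFrom checkVBranch 173056 1024 = true := by
  decide +kernel

end CfsgLib.Fi24Mult30.Tab
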