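import Cfsg.Agent.Fi24Mult30.Table

/-! Generated: checks of the voltages. -/

set_option autoImplicit false
set_option maxRecDepth 100000

namespace CfsgLib.Fi24Mult30.Tab

open CfsgLib.CosetEnum

theorem branch174080 : allFrom checkVBranch 174080 1024 = true := by
  decide +kernel

theorem branch175104 : allFrom checkVBranch 175104 1024 = true := by
  decide +kernel

theorem branch176128 : allFrom checkVBranch 176128 1024 = true := by
  decide +kernel

theorem branch177152 : allFrom checkVBranch 177152 1024 = true := by
  decide +kernel

theorem branch178176 : allFrom checkVBranch 178176 1024 = true := by
  decide +kernel

theorem branch179200 : allFrom checkVBranch 179200 1024 = true := by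
  decide +kernel

theorem branch180224 : allFrom checkVBranch 180224 1024 = true := by
  decide +kernel

theorem branch181248 : allFrom checkVBranch 181248 1024 = true := by
  decide +kernel

theorem branch182272 : allFrom checkVBranch 182272 1024 = true := by
  decide +kernel

theorem branch183296 : allFrom checkVBranch 183296 1024 = true := by
  decide +kernel

end CfsgLib.Fi24Mult30.Tab
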