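import Cfsg.Agent.Fi24Mult30.Table

/-! Generated: checks of the voltages. -/

set_option autoImplicit false
set_option maxRecDepth 100000

namespace CfsgLib.Fi24Mult30.Tab

open CfsgLib.CosetEnum

theorem branch184320 : allFrom checkVBranch 184320 1024 = true := by
  decide +kernel

theorem branch185344 : allFrom checkVBranch 185344 1024 = true := by
  decide +kernel

theorem branch186368 : allFrom checkVBranch 186368 1024 = true := by
  decide +kernel

theorem branch187392 : allFrom checkVBranch 187392 1024 = true := by
  decide +kernel

theorem branch188416 : allFrom checkVBranch 188416 1024 = true := by
  decide +kernel

theorem branch189440 : allFrom checkVBranch 189440 1024 = true := by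
  decide +kernel

theorem branch190464 : allFrom checkVBranch 190464 1024 = true := by
  decide +kernel

theorem branch191488 : allFrom checkVBranch 191488 1024 = true := by
  decide +kernel

theorem branch192512 : allFrom checkVBranch 192512 1024 = true := by
  decide +kernel

theorem branch193536 : allFrom checkVBranch 193536 1024 = true := by
  decide +kernel

end CfsgLib.Fi24Mult30.Tab
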