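import Cfsg.Agent.Fi24Mult30.Table

/-! Generated: checks of the voltages. -/

set_option autoImplicit false
set_option maxRecDepth 100000

namespace CfsgLib.Fi24Mult30.Tab

open CfsgLib.CosetEnum

theorem branch194560 : allFrom checkVBranch 194560 1024 = true := by
  decide +kernel

theorem branch195584 : allFrom checkVBranch 195584 1024 = true := by
  decide +kernel

theorem branch196608 : allFrom checkVBranch 196608 1024 = true := by
  decide +kernel

theorem branch197632 : allFrom checkVBranch 197632 1024 = true := by
  decide +kernel

theorem branch198656 : allFrom checkVBranch 198656 1024 = true := by
  decide +kernel

theorem branch199680 : allFrom checkVBranch 199680 1024 = true := by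
  decide +kernel

theorem branch200704 : allFrom checkVBranch 200704 1024 = true := by
  decide +kernel

theorem branch201728 : allFrom checkVBranch 201728 1024 = true := by
  decide +kernel

theorem branch202752 : allFrom checkVBranch 202752 1024 = true := by
  decide +kernel

theorem branch203776 : allFrom checkVBranch 203776 1024 = true := by
  decide +kernel

end CfsgLib.Fi24Mult30.Tab
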