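import Cfsg.Agent.Fi24Mult30.Table

/-! Generated: checks of the voltages. -/

set_option autoImplicit false
set_option maxRecDepth 100000

namespace CfsgLib.Fi24Mult30.Tab

open CfsgLib.CosetEnum

theorem branch20480 : allFrom checkVBranch 20480 1024 = true := by
  decide +kernel

theorem branch21504 : allFrom checkVBranch 21504 1024 = true := by
  decide +kernel

theorem branch22528 : allFrom checkVBranch 22528 1024 = true := by
  decide +kernel

theorem branch23552 : allFrom checkVBranch 23552 1024 = true := by
  decide +kernel

theorem branch24576 : allFrom checkVBranch 24576 1024 = true := by
  decide +kernel

theorem branch25600 : allFrom checkVBranch 25600 1024 = true := by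
  decide +kernel

theorem branch26624 : allFrom checkVBranch 26624 1024 = true := by
  decide +kernel

theorem branch27648 : allFrom checkVBranch 27648 1024 = true := by
  decide +kernel

theorem branch28672 : allFrom checkVBranch 28672 1024 = true := by
  decide +kernel

theorem branch29696 : allFrom checkVBranch 29696 1024 = true := by
  decide +kernel

end CfsgLib.Fi24Mult30.Tab
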