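import Cfsg.Agent.Fi24Mult30.Table

/-! Generated: checks of the voltages. -/

set_option autoImplicit false
set_option maxRecDepth 100000

namespace CfsgLib.Fi24Mult30.Tab

open CfsgLib.CosetEnum

theorem branch204800 : allFrom checkVBranch 204800 1024 = true := by
  decide +kernel

theorem branch205824 : allFrom checkVBranch 205824 1024 = true := by
  decide +kernel

theorem branch206848 : allFrom checkVBranch 206848 1024 = true := by
  decide +kernel

theorem branch207872 : allFrom checkVBranch 207872 1024 = true := by
  decide +kernel

theorem branch208896 : allFrom checkVBranch 208896 1024 = true := by
  decide +kernel

theorem branch209920 : allFrom checkVBranch 209920 1024 = true := by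
  decide +kernel

theorem branch210944 : allFrom checkVBranch 210944 1024 = true := by
  decide +kernel

theorem branch211968 : allFrom checkVBranch 211968 1024 = true := by
  decide +kernel

theorem branch212992 : allFrom checkVBranch 212992 1024 = true := by
  decide +kernel

theorem branch214016 : allFrom checkVBranch 214016 1024 = true := by
  decide +kernel

end CfsgLib.Fi24Mult30.Tab
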