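import Cfsg.Agent.Fi24Mult30.Table

/-! Generated: checks of the voltages. -/

set_option autoImplicit false
set_option maxRecDepth 100000

namespace CfsgLib.Fi24Mult30.Tab

open CfsgLib.CosetEnum

theorem branch215040 : allFrom checkVBranch 215040 1024 = true := by
  decide +kernel

theorem branch216064 : allFrom checkVBranch 216064 1024 = true := by
  decide +kernel

theorem branch217088 : allFrom checkVBranch 217088 1024 = true := by
  decide +kernel

theorem branch218112 : allFrom checkVBranch 218112 1024 = true := by
  decide +kernel

theorem branch219136 : allFrom checkVBranch 219136 1024 = true := by
  decide +kernel

theorem branch220160 : allFrom checkVBranch 220160 1024 = true := by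
  decide +kernel

theorem branch221184 : allFrom checkVBranch 221184 1024 = true := by
  decide +kernel

theorem branch222208 : allFrom checkVBranch 222208 1024 = true := by
  decide +kernel

theorem branch223232 : allFrom checkVBranch 223232 1024 = true := by
  decide +kernel

theorem branch224256 : allFrom checkVBranch 224256 1024 = true := by
  decide +kernel

end CfsgLib.Fi24Mult30.Tab
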