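import Cfsg.Agent.Fi24Mult30.Table

/-! Generated: checks of the voltages. -/

set_option autoImplicit false
set_option maxRecDepth 100000

namespace CfsgLib.Fi24Mult30.Tab

open CfsgLib.CosetEnum

theorem branch235520 : allFrom checkVBranch 235520 1024 = true := by
  decide +kernel

theorem branch236544 : allFrom checkVBranch 236544 1024 = true := by
  decide +kernel

theorem branch237568 : allFrom checkVBranch 237568 1024 = true := by
  decide +kernel

theorem branch238592 : allFrom checkVBranch 238592 1024 = true := by
  decide +kernel

theorem branch239616 : allFrom checkVBranch 239616 1024 = true := by
  decide +kernel

theorem branch240640 : allFrom checkVBranch 240640 1024 = true := by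
  decide +kernel

theorem branch241664 : allFrom checkVBranch 241664 1024 = true := by
  decide +kernel

theorem branch242688 : allFrom checkVBranch 242688 1024 = true := by
  decide +kernel

theorem branch243712 : allFrom checkVBranch 243712 1024 = true := by
  decide +kernel

theorem branch244736 : allFrom checkVBranch 244736 1024 = true := by
  decide +kernel

end CfsgLib.Fi24Mult30.Tab
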