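import Cfsg.Agent.Fi24Mult30.Table

/-! Generated: checks of the voltages. -/

set_option autoImplicit false
set_option maxRecDepth 100000

namespace CfsgLib.Fi24Mult30.Tab

open CfsgLib.CosetEnum

theorem branch245760 : allFrom checkVBranch 245760 1024 = true := by
  decide +kernel

theorem branch246784 : allFrom checkVBranch 246784 1024 = true := by
  decide +kernel

theorem branch247808 : allFrom checkVBranch 247808 1024 = true := by
  decide +kernel

theorem branch248832 : allFrom checkVBranch 248832 1024 = true := by
  decide +kernel

theorem branch249856 : allFrom checkVBranch 249856 1024 = true := by
  decide +kernel

theorem branch250880 : allFrom checkVBranch 250880 1024 = true := by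
  decide +kernel

theorem branch251904 : allFrom checkVBranch 251904 1024 = true := by
  decide +kernel

theorem branch252928 : allFrom checkVBranch 252928 1024 = true := by
  decide +kernel

theorem branch253952 : allFrom checkVBranch 253952 1024 = true := by
  decide +kernel

theorem branch254976 : allFrom checkVBranch 254976 1024 = true := by
  decide +kernel

end CfsgLib.Fi24Mult30.Tab
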