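import Cfsg.Agent.Fi24Mult30.Table

/-! Generated: checks of the voltages. -/

set_option autoImplicit false
set_option maxRecDepth 100000

namespace CfsgLib.Fi24Mult30.Tab

open CfsgLib.CosetEnum

theorem branch256000 : allFrom checkVBranch 256000 1024 = true := by
  decide +kernel

theorem branch257024 : allFrom checkVBranch 257024 1024 = true := by
  decide +kernel

theorem branch258048 : allFrom checkVBranch 258048 1024 = true := by
  decide +kernel

theorem branch259072 : allFrom checkVBranch 259072 1024 = true := by
  decide +kernel

theorem branch260096 : allFrom checkVBranch 260096 1024 = true := by
  decide +kernel

theorem branch261120 : allFrom checkVBranch 261120 1024 = true := by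
  decide +kernel

theorem branch262144 : allFrom checkVBranch 262144 1024 = true := by
  decide +kernel

theorem branch263168 : allFrom checkVBranch 263168 1024 = true := by
  decide +kernel

theorem branch264192 : allFrom checkVBranch 264192 1024 = true := by
  decide +kernel

theorem branch265216 : allFrom checkVBranch 265216 1024 = true := by
  decide +kernel

end CfsgLib.Fi24Mult30.Tab
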