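import Cfsg.Agent.Fi24Mult30.Table

/-! Generated: checks of the voltages. -/

set_option autoImplicit false
set_option maxRecDepth 100000

namespace CfsgLib.Fi24Mult30.Tab

open CfsgLib.CosetEnum

theorem branch266240 : allFrom checkVBranch 266240 1024 = true := by
  decide +kernel

theorem branch267264 : allFrom checkVBranch 267264 1024 = true := by
  decide +kernel

theorem branch268288 : allFrom checkVBranch 268288 1024 = true := by
  decide +kernel

theorem branch269312 : allFrom checkVBranch 269312 1024 = true := by
  decide +kernel

theorem branch270336 : allFrom checkVBranch 270336 1024 = true := by
  decide +kernel

theorem branch271360 : allFrom checkVBranch 271360 1024 = true := by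
  decide +kernel

theorem branch272384 : allFrom checkVBranch 272384 1024 = true := by
  decide +kernel

theorem branch273408 : allFrom checkVBranch 273408 1024 = true := by
  decide +kernel

theorem branch274432 : allFrom checkVBranch 274432 1024 = true := by
  decide +kernel

theorem branch275456 : allFrom checkVBranch 275456 1024 = true := by
  decide +kernel

end CfsgLib.Fi24Mult30.Tab
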