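import Cfsg.Agent.Fi24Mult30.Table

/-! Generated: checks of the voltages. -/

set_option autoImplicit false
set_option maxRecDepth 100000

namespace CfsgLib.Fi24Mult30.Tab

open CfsgLib.CosetEnum

theorem branch276480 : allFrom checkVBranch 276480 1024 = true := by
  decide +kernel

theorem branch277504 : allFrom checkVBranch 277504 1024 = true := by
  decide +kernel

theorem branch278528 : allFrom checkVBranch 278528 1024 = true := by
  decide +kernel

theorem branch279552 : allFrom checkVBranch 279552 1024 = true := by
  decide +kernel

theorem branch280576 : allFrom checkVBranch 280576 1024 = true := by
  decide +kernel

theorem branch281600 : allFrom checkVBranch 281600 1024 = true := by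
  decide +kernel

theorem branch282624 : allFrom checkVBranch 282624 1024 = true := by
  decide +kernel

theorem branch283648 : allFrom checkVBranch 283648 1024 = true := by
  decide +kernel

theorem branch284672 : allFrom checkVBranch 284672 1024 = true := by
  decide +kernel

theorem branch285696 : allFrom checkVBranch 285696 1024 = true := by
  decide +kernel

end CfsgLib.Fi24Mult30.Tab
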