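import Cfsg.Agent.Fi24Mult30.Table

/-! Generated: checks of the voltages. -/

set_option autoImplicit false
set_option maxRecDepth 100000

namespace CfsgLib.Fi24Mult30.Tab

open CfsgLib.CosetEnum

theorem branch286720 : allFrom checkVBranch 286720 1024 = true := by
  decide +kernel

theorem branch287744 : allFrom checkVBranch 287744 1024 = true := by
  decide +kernel

theorem branch288768 : allFrom checkVBranch 288768 1024 = true := by
  decide +kernel

theorem branch289792 : allFrom checkVBranch 289792 1024 = true := by
  decide +kernel

theorem branch290816 : allFrom checkVBranch 290816 1024 = true := by
  decide +kernel

theorem branch291840 : allFrom checkVBranch 291840 1024 = true := by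
  decide +kernel

theorem branch292864 : allFrom checkVBranch 292864 1024 = true := by
  decide +kernel

theorem branch293888 : allFrom checkVBranch 293888 1024 = true := by
  decide +kernel

theorem branch294912 : allFrom checkVBranch 294912 1024 = true := by
  decide +kernel

theorem branch295936 : allFrom checkVBranch 295936 1024 = true := by
  decide +kernel

end CfsgLib.Fi24Mult30.Tab
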