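import Cfsg.Agent.Fi24Mult30.Table

/-! Generated: checks of the voltages. -/

set_option autoImplicit false
set_option maxRecDepth 100000

namespace CfsgLib.Fi24Mult30.Tab

open CfsgLib.CosetEnum

theorem branch296960 : allFrom checkVBranch 296960 1024 = true := by
  decide +kernel

theorem branch297984 : allFrom checkVBranch 297984 1024 = true := by
  decide +kernel

theorem branch299008 : allFrom checkVBranch 299008 1024 = true := by
  decide +kernel

theorem branch300032 : allFrom checkVBranch 300032 1024 = true := by
  decide +kernel

theorem branch301056 : allFrom checkVBranch 301056 1024 = true := by
  decide +kernel

theorem branch302080 : allFrom checkVBranch 302080 1024 = true := by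
  decide +kernel

theorem branch303104 : allFrom checkVBranch 303104 1024 = true := by
  decide +kernel

theorem branch304128 : allFrom checkVBranch 304128 1024 = true := by
  decide +kernel

theorem branch305152 : allFrom checkVBranch 305152 1024 = true := by
  decide +kernel

theorem branch306176 : allFrom checkVBranch 306176 760 = true := by
  decide +kernel

end CfsgLib.Fi24Mult30.Tab
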