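import Cfsg.Agent.Fi24Mult30.Table

/-! Generated: checks of the voltages. -/

set_option autoImplicit false
set_option maxRecDepth 100000

namespace CfsgLib.Fi24Mult30.Tab

open CfsgLib.CosetEnum

theorem branch30720 : allFrom checkVBranch 30720 1024 = true := by
  decide +kernel

theorem branch31744 : allFrom checkVBranch 31744 1024 = true := by
  decide +kernel

theorem branch32768 : allFrom checkVBranch 32768 1024 = true := by
  decide +kernel

theorem branch33792 : allFrom checkVBranch 33792 1024 = true := by
  decide +kernel

theorem branch34816 : allFrom checkVBranch 34816 1024 = true := by
  decide +kernel

theorem branch35840 : allFrom checkVBranch 35840 1024 = true := by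
  decide +kernel

theorem branch36864 : allFrom checkVBranch 36864 1024 = true := by
  decide +kernel

theorem branch37888 : allFrom checkVBranch 37888 1024 = true := by
  decide +kernel

theorem branch38912 : allFrom checkVBranch 38912 1024 = true := by
  decide +kernel

theorem branch39936 : allFrom checkVBranch 39936 1024 = true := by
  decide +kernel

end CfsgLib.Fi24Mult30.Tab
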