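import Cfsg.Agent.Fi24Mult30.Table

/-! Generated: checks of the voltages. -/

set_option autoImplicit false
set_option maxRecDepth 100000

namespace CfsgLib.Fi24Mult30.Tab

open CfsgLib.CosetEnum

theorem branch40960 : allFrom checkVBranch 40960 1024 = true := by
  decide +kernel

theorem branch41984 : allFrom checkVBranch 41984 1024 = true := by
  decide +kernel

theorem branch43008 : allFrom checkVBranch 43008 1024 = true := by
  decide +kernel

theorem branch44032 : allFrom checkVBranch 44032 1024 = true := by
  decide +kernel

theorem branch45056 : allFrom checkVBranch 45056 1024 = true := by
  decide +kernel

theorem branch46080 : allFrom checkVBranch 46080 1024 = true := by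
  decide +kernel

theorem branch47104 : allFrom checkVBranch 47104 1024 = true := by
  decide +kernel

theorem branch48128 : allFrom checkVBranch 48128 1024 = true := by
  decide +kernel

theorem branch49152 : allFrom checkVBranch 49152 1024 = true := by
  decide +kernel

theorem branch50176 : allFrom checkVBranch 50176 1024 = true := by
  decide +kernel

end CfsgLib.Fi24Mult30.Tab
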