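import Cfsg.Agent.Fi24Mult30.Table

/-! Generated: checks of the voltages. -/

set_option autoImplicit false
set_option maxRecDepth 100000

namespace CfsgLib.Fi24Mult30.Tab

open CfsgLib.CosetEnum

theorem branch61440 : allFrom checkVBranch 61440 1024 = true := by
  decide +kernel

theorem branch62464 : allFrom checkVBranch 62464 1024 = true := by
  decide +kernel

theorem branch63488 : allFrom checkVBranch 63488 1024 = true := by
  decide +kernel

theorem branch64512 : allFrom checkVBranch 64512 1024 = true := by
  decide +kernel

theorem branch65536 : allFrom checkVBranch 65536 1024 = true := by
  decide +kernel

theorem branch66560 : allFrom checkVBranch 66560 1024 = true := by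
  decide +kernel

theorem branch67584 : allFrom checkVBranch 67584 1024 = true := by
  decide +kernel

theorem branch68608 : allFrom checkVBranch 68608 1024 = true := by
  decide +kernel

theorem branch69632 : allFrom checkVBranch 69632 1024 = true := by
  decide +kernel

theorem branch70656 : allFrom checkVBranch 70656 1024 = true := by
  decide +kernel

end CfsgLib.Fi24Mult30.Tab
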