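import Cfsg.Agent.Fi24Mult30.Table

/-! Generated: checks of the voltages. -/

set_option autoImplicit false
set_option maxRecDepth 100000

namespace CfsgLib.Fi24Mult30.Tab

open CfsgLib.CosetEnum

theorem branch71680 : allFrom checkVBranch 71680 1024 = true := by
  decide +kernel

theorem branch72704 : allFrom checkVBranch 72704 1024 = true := by
  decide +kernel

theorem branch73728 : allFrom checkVBranch 73728 1024 = true := by
  decide +kernel

theorem branch74752 : allFrom checkVBranch 74752 1024 = true := by
  decide +kernel

theorem branch75776 : allFrom checkVBranch 75776 1024 = true := by
  decide +kernel

theorem branch76800 : allFrom checkVBranch 76800 1024 = true := by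
  decide +kernel

theorem branch77824 : allFrom checkVBranch 77824 1024 = true := by
  decide +kernel

theorem branch78848 : allFrom checkVBranch 78848 1024 = true := by
  decide +kernel

theorem branch79872 : allFrom checkVBranch 79872 1024 = true := by
  decide +kernel

theorem branch80896 : allFrom checkVBranch 80896 1024 = true := by
  decide +kernel

end CfsgLib.Fi24Mult30.Tab
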