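import Cfsg.Agent.Fi24Mult30.Table

/-! Generated: checks of the voltages. -/

set_option autoImplicit false
set_option maxRecDepth 100000

namespace CfsgLib.Fi24Mult30.Tab

open CfsgLib.CosetEnum

theorem branch81920 : allFrom checkVBranch 81920 1024 = true := by
  decide +kernel

theorem branch82944 : allFrom checkVBranch 82944 1024 = true := by
  decide +kernel

theorem branch83968 : allFrom checkVBranch 83968 1024 = true := by
  decide +kernel

theorem branch84992 : allFrom checkVBranch 84992 1024 = true := by
  decide +kernel

theorem branch86016 : allFrom checkVBranch 86016 1024 = true := by
  decide +kernel

theorem branch87040 : allFrom checkVBranch 87040 1024 = true := by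
  decide +kernel

theorem branch88064 : allFrom checkVBranch 88064 1024 = true := by
  decide +kernel

theorem branch89088 : allFrom checkVBranch 89088 1024 = true := by
  decide +kernel

theorem branch90112 : allFrom checkVBranch 90112 1024 = true := by
  decide +kernel

theorem branch91136 : allFrom checkVBranch 91136 1024 = true := by
  decide +kernel

end CfsgLib.Fi24Mult30.Tab
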