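import Cfsg.Agent.Fi24Mult30.Table

/-! Generated: checks of the voltages. -/

set_option autoImplicit false
set_option maxRecDepth 100000

namespace CfsgLib.Fi24Mult30.Tab

open CfsgLib.CosetEnum

theorem branch92160 : allFrom checkVBranch 92160 1024 = true := by
  decide +kernel

theorem branch93184 : allFrom checkVBranch 93184 1024 = true := by
  decide +kernel

theorem branch94208 : allFrom checkVBranch 94208 1024 = true := by
  decide +kernel

theorem branch95232 : allFrom checkVBranch 95232 1024 = true := by
  decide +kernel

theorem branch96256 : allFrom checkVBranch 96256 1024 = true := by
  decide +kernel

theorem branch97280 : allFrom checkVBranch 97280 1024 = true := by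
  decide +kernel

theorem branch98304 : allFrom checkVBranch 98304 1024 = true := by
  decide +kernel

theorem branch99328 : allFrom checkVBranch 99328 1024 = true := by
  decide +kernel

theorem branch100352 : allFrom checkVBranch 100352 1024 = true := by
  decide +kernel

theorem branch101376 : allFrom checkVBranch 101376 1024 = true := by
  decide +kernel

end CfsgLib.Fi24Mult30.Tab
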