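import Cfsg.Agent.Fi24Mult30.Table

/-! Generated: checks of the voltages. -/

set_option autoImplicit false
set_option maxRecDepth 100000

namespace CfsgLib.Fi24Mult30.Tab

open CfsgLib.CosetEnum

theorem chain0 : allFrom checkVChain 0 1024 = true := by
  decide +kernel

theorem chain1024 : allFrom checkVChain 1024 1024 = true := by
  decide +kernel

theorem chain2048 : allFrom checkVChain 2048 1024 = true := by
  decide +kernel

theorem chain3072 : allFrom checkVChain 3072 1024 = true := by
  decide +kernel

theorem chain4096 : allFrom checkVChain 4096 1024 = true := by
  decide +kernel

theorem chain5120 : allFrom checkVChain 5120 1024 = true := by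
  decide +kernel

theorem chain6144 : allFrom checkVChain 6144 1024 = true := by
  decide +kernel

theorem chain7168 : allFrom checkVChain 7168 1024 = true := by
  decide +kernel

theorem chain8192 : allFrom checkVChain 8192 1024 = true := by
  decide +kernel

theorem chain9216 : allFrom checkVChain 9216 1024 = true := by
  decide +kernel

end CfsgLib.Fi24Mult30.Tab
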