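import Cfsg.Agent.Fi24Mult30.Table

/-! Generated: checks of the voltages. -/

set_option autoImplicit false
set_option maxRecDepth 100000

namespace CfsgLib.Fi24Mult30.Tab

open CfsgLib.CosetEnum

theorem chain10240 : allFrom checkVChain 10240 1024 = true := by
  decide +kernel

theorem chain11264 : allFrom checkVChain 11264 1024 = true := by
  decide +kernel

theorem chain12288 : allFrom checkVChain 12288 1024 = true := by
  decide +kernel

theorem chain13312 : allFrom checkVChain 13312 1024 = true := by
  decide +kernel

theorem chain14336 : allFrom checkVChain 14336 1024 = true := by
  decide +kernel

theorem chain15360 : allFrom checkVChain 15360 1024 = true := by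
  decide +kernel

theorem chain16384 : allFrom checkVChain 16384 1024 = true := by
  decide +kernel

theorem chain17408 : allFrom checkVChain 17408 1024 = true := by
  decide +kernel

theorem chain18432 : allFrom checkVChain 18432 1024 = true := by
  decide +kernel

theorem chain19456 : allFrom checkVChain 19456 1024 = true := by
  decide +kernel

end CfsgLib.Fi24Mult30.Tab
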