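import Cfsg.Agent.Fi24Mult30.Table

/-! Generated: checks of the voltages. -/

set_option autoImplicit false
set_option maxRecDepth 100000

namespace CfsgLib.Fi24Mult30.Tab

open CfsgLib.CosetEnum

theorem chain102400 : allFrom checkVChain 102400 1024 = true := by
  decide +kernel

theorem chain103424 : allFrom checkVChain 103424 1024 = true := by
  decide +kernel

theorem chain104448 : allFrom checkVChain 104448 1024 = true := by
  decide +kernel

theorem chain105472 : allFrom checkVChain 105472 1024 = true := by
  decide +kernel

theorem chain106496 : allFrom checkVChain 106496 1024 = true := by
  decide +kernel

theorem chain107520 : allFrom checkVChain 107520 1024 = true := by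
  decide +kernel

theorem chain108544 : allFrom checkVChain 108544 1024 = true := by
  decide +kernel

theorem chain109568 : allFrom checkVChain 109568 1024 = true := by
  decide +kernel

theorem chain110592 : allFrom checkVChain 110592 1024 = true := by
  decide +kernel

theorem chain111616 : allFrom checkVChain 111616 1024 = true := by
  decide +kernel

end CfsgLib.Fi24Mult30.Tab
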