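import Cfsg.Agent.Fi24Mult30.Table

/-! Generated: checks of the voltages. -/

set_option autoImplicit false
set_option maxRecDepth 100000

namespace CfsgLib.Fi24Mult30.Tab

open CfsgLib.CosetEnum

theorem chain112640 : allFrom checkVChain 112640 1024 = true := by
  decide +kernel

theorem chain113664 : allFrom checkVChain 113664 1024 = true := by
  decide +kernel

theorem chain114688 : allFrom checkVChain 114688 1024 = true := by
  decide +kernel

theorem chain115712 : allFrom checkVChain 115712 1024 = true := by
  decide +kernel

theorem chain116736 : allFrom checkVChain 116736 1024 = true := by
  decide +kernel

theorem chain117760 : allFrom checkVChain 117760 1024 = true := by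
  decide +kernel

theorem chain118784 : allFrom checkVChain 118784 1024 = true := by
  decide +kernel

theorem chain119808 : allFrom checkVChain 119808 1024 = true := by
  decide +kernel

theorem chain120832 : allFrom checkVChain 120832 1024 = true := by
  decide +kernel

theorem chain121856 : allFrom checkVChain 121856 1024 = true := by
  decide +kernel

end CfsgLib.Fi24Mult30.Tab
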