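import Cfsg.Agent.Fi24Mult30.Table

/-! Generated: checks of the voltages. -/

set_option autoImplicit false
set_option maxRecDepth 100000

namespace CfsgLib.Fi24Mult30.Tab

open CfsgLib.CosetEnum

theorem chain122880 : allFrom checkVChain 122880 1024 = true := by
  decide +kernel

theorem chain123904 : allFrom checkVChain 123904 1024 = true := by
  decide +kernel

theorem chain124928 : allFrom checkVChain 124928 1024 = true := by
  decide +kernel

theorem chain125952 : allFrom checkVChain 125952 1024 = true := by
  decide +kernel

theorem chain126976 : allFrom checkVChain 126976 1024 = true := by
  decide +kernel

theorem chain128000 : allFrom checkVChain 128000 1024 = true := by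
  decide +kernel

theorem chain129024 : allFrom checkVChain 129024 1024 = true := by
  decide +kernel

theorem chain130048 : allFrom checkVChain 130048 1024 = true := by
  decide +kernel

theorem chain131072 : allFrom checkVChain 131072 1024 = true := by
  decide +kernel

theorem chain132096 : allFrom checkVChain 132096 1024 = true := by
  decide +kernel

end CfsgLib.Fi24Mult30.Tab
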