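import Cfsg.Agent.Fi24Mult30.Table

/-! Generated: checks of the voltages. -/

set_option autoImplicit false
set_option maxRecDepth 100000

namespace CfsgLib.Fi24Mult30.Tab

open CfsgLib.CosetEnum

theorem chain133120 : allFrom checkVChain 133120 1024 = true := by
  decide +kernel

theorem chain134144 : allFrom checkVChain 134144 1024 = true := by
  decide +kernel

theorem chain135168 : allFrom checkVChain 135168 1024 = true := by
  decide +kernel

theorem chain136192 : allFrom checkVChain 136192 1024 = true := by
  decide +kernel

theorem chain137216 : allFrom checkVChain 137216 1024 = true := by
  decide +kernel

theorem chain138240 : allFrom checkVChain 138240 1024 = true := by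
  decide +kernel

theorem chain139264 : allFrom checkVChain 139264 1024 = true := by
  decide +kernel

theorem chain140288 : allFrom checkVChain 140288 1024 = true := by
  decide +kernel

theorem chain141312 : allFrom checkVChain 141312 1024 = true := by
  decide +kernel

theorem chain142336 : allFrom checkVChain 142336 1024 = true := by
  decide +kernel

end CfsgLib.Fi24Mult30.Tab
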