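import Cfsg.Agent.Fi24Mult30.Table

/-! Generated: checks of the voltages. -/

set_option autoImplicit false
set_option maxRecDepth 100000

namespace CfsgLib.Fi24Mult30.Tab

open CfsgLib.CosetEnum

theorem chain143360 : allFrom checkVChain 143360 1024 = true := by
  decide +kernel

theorem chain144384 : allFrom checkVChain 144384 1024 = true := by
  decide +kernel

theorem chain145408 : allFrom checkVChain 145408 1024 = true := by
  decide +kernel

theorem chain146432 : allFrom checkVChain 146432 1024 = true := by
  decide +kernel

theorem chain147456 : allFrom checkVChain 147456 1024 = true := by
  decide +kernel

theorem chain148480 : allFrom checkVChain 148480 1024 = true := by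
  decide +kernel

theorem chain149504 : allFrom checkVChain 149504 1024 = true := by
  decide +kernel

theorem chain150528 : allFrom checkVChain 150528 1024 = true := by
  decide +kernel

theorem chain151552 : allFrom checkVChain 151552 1024 = true := by
  decide +kernel

theorem chain152576 : allFrom checkVChain 152576 1024 = true := by
  decide +kernel

end CfsgLib.Fi24Mult30.Tab
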