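import Cfsg.Agent.Fi24Mult30.Table

/-! Generated: checks of the voltages. -/

set_option autoImplicit false
set_option maxRecDepth 100000

namespace CfsgLib.Fi24Mult30.Tab

open CfsgLib.CosetEnum

theorem chain153600 : allFrom checkVChain 153600 1024 = true := by
  decide +kernel

theorem chain154624 : allFrom checkVChain 154624 1024 = true := by
  decide +kernel

theorem chain155648 : allFrom checkVChain 155648 1024 = true := by
  decide +kernel

theorem chain156672 : allFrom checkVChain 156672 1024 = true := by
  decide +kernel

theorem chain157696 : allFrom checkVChain 157696 1024 = true := by
  decide +kernel

theorem chain158720 : allFrom checkVChain 158720 1024 = true := by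
  decide +kernel

theorem chain159744 : allFrom checkVChain 159744 1024 = true := by
  decide +kernel

theorem chain160768 : allFrom checkVChain 160768 1024 = true := by
  decide +kernel

theorem chain161792 : allFrom checkVChain 161792 1024 = true := by
  decide +kernel

theorem chain162816 : allFrom checkVChain 162816 1024 = true := by
  decide +kernel

end CfsgLib.Fi24Mult30.Tab
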