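import Cfsg.Agent.Fi24Mult30.Table

/-! Generated: checks of the voltages. -/

set_option autoImplicit false
set_option maxRecDepth 100000

namespace CfsgLib.Fi24Mult30.Tab

open CfsgLib.CosetEnum

theorem chain163840 : allFrom checkVChain 163840 1024 = true := by
  decide +kernel

theorem chain164864 : allFrom checkVChain 164864 1024 = true := by
  decide +kernel

theorem chain165888 : allFrom checkVChain 165888 1024 = true := by
  decide +kernel

theorem chain166912 : allFrom checkVChain 166912 1024 = true := by
  decide +kernel

theorem chain167936 : allFrom checkVChain 167936 1024 = true := by
  decide +kernel

theorem chain168960 : allFrom checkVChain 168960 1024 = true := by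
  decide +kernel

theorem chain169984 : allFrom checkVChain 169984 1024 = true := by
  decide +kernel

theorem chain171008 : allFrom checkVChain 171008 1024 = true := by
  decide +kernel

theorem chain172032 : allFrom checkVChain 172032 1024 = true := by
  decide +kernel

theorem chain173056 : allFrom checkVChain 173056 1024 = true := by
  decide +kernel

end CfsgLib.Fi24Mult30.Tab
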