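import Cfsg.Agent.Fi24Mult30.Table

/-! Generated: checks of the voltages. -/

set_option autoImplicit false
set_option maxRecDepth 100000

namespace CfsgLib.Fi24Mult30.Tab

open CfsgLib.CosetEnum

theorem chain174080 : allFrom checkVChain 174080 1024 = true := by
  decide +kernel

theorem chain175104 : allFrom checkVChain 175104 1024 = true := by
  decide +kernel

theorem chain176128 : allFrom checkVChain 176128 1024 = true := by
  decide +kernel

theorem chain177152 : allFrom checkVChain 177152 1024 = true := by
  decide +kernel

theorem chain178176 : allFrom checkVChain 178176 1024 = true := by
  decide +kernel

theorem chain179200 : allFrom checkVChain 179200 1024 = true := by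
  decide +kernel

theorem chain180224 : allFrom checkVChain 180224 1024 = true := by
  decide +kernel

theorem chain181248 : allFrom checkVChain 181248 1024 = true := by
  decide +kernel

theorem chain182272 : allFrom checkVChain 182272 1024 = true := by
  decide +kernel

theorem chain183296 : allFrom checkVChain 183296 1024 = true := by
  decide +kernel

end CfsgLib.Fi24Mult30.Tab
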