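import Cfsg.Agent.Fi24Mult30.Table

/-! Generated: checks of the voltages. -/

set_option autoImplicit false
set_option maxRecDepth 100000

namespace CfsgLib.Fi24Mult30.Tab

open CfsgLib.CosetEnum

theorem chain194560 : allFrom checkVChain 194560 1024 = true := by
  decide +kernel

theorem chain195584 : allFrom checkVChain 195584 1024 = true := by
  decide +kernel

theorem chain196608 : allFrom checkVChain 196608 1024 = true := by
  decide +kernel

theorem chain197632 : allFrom checkVChain 197632 1024 = true := by
  decide +kernel

theorem chain198656 : allFrom checkVChain 198656 1024 = true := by
  decide +kernel

theorem chain199680 : allFrom checkVChain 199680 1024 = true := by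
  decide +kernel

theorem chain200704 : allFrom checkVChain 200704 1024 = true := by
  decide +kernel

theorem chain201728 : allFrom checkVChain 201728 1024 = true := by
  decide +kernel

theorem chain202752 : allFrom checkVChain 202752 1024 = true := by
  decide +kernel

theorem chain203776 : allFrom checkVChain 203776 1024 = true := by
  decide +kernel

end CfsgLib.Fi24Mult30.Tab
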