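import Cfsg.Agent.Fi24Mult30.Table

/-! Generated: checks of the voltages. -/

set_option autoImplicit false
set_option maxRecDepth 100000

namespace CfsgLib.Fi24Mult30.Tab

open CfsgLib.CosetEnum

theorem chain20480 : allFrom checkVChain 20480 1024 = true := by
  decide +kernel

theorem chain21504 : allFrom checkVChain 21504 1024 = true := by
  decide +kernel

theorem chain22528 : allFrom checkVChain 22528 1024 = true := by
  decide +kernel

theorem chain23552 : allFrom checkVChain 23552 1024 = true := by
  decide +kernel

theorem chain24576 : allFrom checkVChain 24576 1024 = true := by
  decide +kernel

theorem chain25600 : allFrom checkVChain 25600 1024 = true := by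
  decide +kernel

theorem chain26624 : allFrom checkVChain 26624 1024 = true := by
  decide +kernel

theorem chain27648 : allFrom checkVChain 27648 1024 = true := by
  decide +kernel

theorem chain28672 : allFrom checkVChain 28672 1024 = true := by
  decide +kernel

theorem chain29696 : allFrom checkVChain 29696 1024 = true := by
  decide +kernel

end CfsgLib.Fi24Mult30.Tab
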