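import Cfsg.Agent.Fi24Mult30.Table

/-! Generated: checks of the voltages. -/

set_option autoImplicit false
set_option maxRecDepth 100000

namespace CfsgLib.Fi24Mult30.Tab

open CfsgLib.CosetEnum

theorem chain215040 : allFrom checkVChain 215040 1024 = true := by
  decide +kernel

theorem chain216064 : allFrom checkVChain 216064 1024 = true := by
  decide +kernel

theorem chain217088 : allFrom checkVChain 217088 1024 = true := by
  decide +kernel

theorem chain218112 : allFrom checkVChain 218112 1024 = true := by
  decide +kernel

theorem chain219136 : allFrom checkVChain 219136 1024 = true := by
  decide +kernel

theorem chain220160 : allFrom checkVChain 220160 1024 = true := by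
  decide +kernel

theorem chain221184 : allFrom checkVChain 221184 1024 = true := by
  decide +kernel

theorem chain222208 : allFrom checkVChain 222208 1024 = true := by
  decide +kernel

theorem chain223232 : allFrom checkVChain 223232 1024 = true := by
  decide +kernel

theorem chain224256 : allFrom checkVChain 224256 1024 = true := by
  decide +kernel

end CfsgLib.Fi24Mult30.Tab
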