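import Cfsg.Agent.Fi24Mult30.Table

/-! Generated: checks of the voltages. -/

set_option autoImplicit false
set_option maxRecDepth 100000

namespace CfsgLib.Fi24Mult30.Tab

open CfsgLib.CosetEnum

theorem chain225280 : allFrom checkVChain 225280 1024 = true := by
  decide +kernel

theorem chain226304 : allFrom checkVChain 226304 1024 = true := by
  decide +kernel

theorem chain227328 : allFrom checkVChain 227328 1024 = true := by
  decide +kernel

theorem chain228352 : allFrom checkVChain 228352 1024 = true := by
  decide +kernel

theorem chain229376 : allFrom checkVChain 229376 1024 = true := by
  decide +kernel

theorem chain230400 : allFrom checkVChain 230400 1024 = true := by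
  decide +kernel

theorem chain231424 : allFrom checkVChain 231424 1024 = true := by
  decide +kernel

theorem chain232448 : allFrom checkVChain 232448 1024 = true := by
  decide +kernel

theorem chain233472 : allFrom checkVChain 233472 1024 = true := by
  decide +kernel

theorem chain234496 : allFrom checkVChain 234496 1024 = true := by
  decide +kernel

end CfsgLib.Fi24Mult30.Tab
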