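import Cfsg.Agent.Fi24Mult30.Table

/-! Generated: checks of the voltages. -/

set_option autoImplicit false
set_option maxRecDepth 100000

namespace CfsgLib.Fi24Mult30.Tab

open CfsgLib.CosetEnum

theorem chain235520 : allFrom checkVChain 235520 1024 = true := by
  decide +kernel

theorem chain236544 : allFrom checkVChain 236544 1024 = true := by
  decide +kernel

theorem chain237568 : allFrom checkVChain 237568 1024 = true := by
  decide +kernel

theorem chain238592 : allFrom checkVChain 238592 1024 = true := by
  decide +kernel

theorem chain239616 : allFrom checkVChain 239616 1024 = true := by
  decide +kernel

theorem chain240640 : allFrom checkVChain 240640 1024 = true := by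
  decide +kernel

theorem chain241664 : allFrom checkVChain 241664 1024 = true := by
  decide +kernel

theorem chain242688 : allFrom checkVChain 242688 1024 = true := by
  decide +kernel

theorem chain243712 : allFrom checkVChain 243712 1024 = true := by
  decide +kernel

theorem chain244736 : allFrom checkVChain 244736 1024 = true := by
  decide +kernel

end CfsgLib.Fi24Mult30.Tab
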