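import Cfsg.Agent.Fi24Mult30.Table

/-! Generated: checks of the voltages. -/

set_option autoImplicit false
set_option maxRecDepth 100000

namespace CfsgLib.Fi24Mult30.Tab

open CfsgLib.CosetEnum

theorem chain245760 : allFrom checkVChain 245760 1024 = true := by
  decide +kernel

theorem chain246784 : allFrom checkVChain 246784 1024 = true := by
  decide +kernel

theorem chain247808 : allFrom checkVChain 247808 1024 = true := by
  decide +kernel

theorem chain248832 : allFrom checkVChain 248832 1024 = true := by
  decide +kernel

theorem chain249856 : allFrom checkVChain 249856 1024 = true := by
  decide +kernel

theorem chain250880 : allFrom checkVChain 250880 1024 = true := by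
  decide +kernel

theorem chain251904 : allFrom checkVChain 251904 1024 = true := by
  decide +kernel

theorem chain252928 : allFrom checkVChain 252928 1024 = true := by
  decide +kernel

theorem chain253952 : allFrom checkVChain 253952 1024 = true := by
  decide +kernel

theorem chain254976 : allFrom checkVChain 254976 1024 = true := by
  decide +kernel

end CfsgLib.Fi24Mult30.Tab
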