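import Cfsg.Agent.Fi24Mult30.Table

/-! Generated: checks of the voltages. -/

set_option autoImplicit false
set_option maxRecDepth 100000

namespace CfsgLib.Fi24Mult30.Tab

open CfsgLib.CosetEnum

theorem chain256000 : allFrom checkVChain 256000 1024 = true := by
  decide +kernel

theorem chain257024 : allFrom checkVChain 257024 1024 = true := by
  decide +kernel

theorem chain258048 : allFrom checkVChain 258048 1024 = true := by
  decide +kernel

theorem chain259072 : allFrom checkVChain 259072 1024 = true := by
  decide +kernel

theorem chain260096 : allFrom checkVChain 260096 1024 = true := by
  decide +kernel

theorem chain261120 : allFrom checkVChain 261120 1024 = true := by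
  decide +kernel

theorem chain262144 : allFrom checkVChain 262144 1024 = true := by
  decide +kernel

theorem chain263168 : allFrom checkVChain 263168 1024 = true := by
  decide +kernel

theorem chain264192 : allFrom checkVChain 264192 1024 = true := by
  decide +kernel

theorem chain265216 : allFrom checkVChain 265216 1024 = true := by
  decide +kernel

end CfsgLib.Fi24Mult30.Tab
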