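import Cfsg.Agent.Fi24Mult30.Table

/-! Generated: checks of the voltages. -/

set_option autoImplicit false
set_option maxRecDepth 100000

namespace CfsgLib.Fi24Mult30.Tab

open CfsgLib.CosetEnum

theorem chain266240 : allFrom checkVChain 266240 1024 = true := by
  decide +kernel

theorem chain267264 : allFrom checkVChain 267264 1024 = true := by
  decide +kernel

theorem chain268288 : allFrom checkVChain 268288 1024 = true := by
  decide +kernel

theorem chain269312 : allFrom checkVChain 269312 1024 = true := by
  decide +kernel

theorem chain270336 : allFrom checkVChain 270336 1024 = true := by
  decide +kernel

theorem chain271360 : allFrom checkVChain 271360 1024 = true := by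
  decide +kernel

theorem chain272384 : allFrom checkVChain 272384 1024 = true := by
  decide +kernel

theorem chain273408 : allFrom checkVChain 273408 1024 = true := by
  decide +kernel

theorem chain274432 : allFrom checkVChain 274432 1024 = true := by
  decide +kernel

theorem chain275456 : allFrom checkVChain 275456 1024 = true := by
  decide +kernel

end CfsgLib.Fi24Mult30.Tab
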