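import Cfsg.Agent.Fi24Mult30.Table

/-! Generated: checks of the voltages. -/

set_option autoImplicit false
set_option maxRecDepth 100000

namespace CfsgLib.Fi24Mult30.Tab

open CfsgLib.CosetEnum

theorem chain276480 : allFrom checkVChain 276480 1024 = true := by
  decide +kernel

theorem chain277504 : allFrom checkVChain 277504 1024 = true := by
  decide +kernel

theorem chain278528 : allFrom checkVChain 278528 1024 = true := by
  decide +kernel

theorem chain279552 : allFrom checkVChain 279552 1024 = true := by
  decide +kernel

theorem chain280576 : allFrom checkVChain 280576 1024 = true := by
  decide +kernel

theorem chain281600 : allFrom checkVChain 281600 1024 = true := by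
  decide +kernel

theorem chain282624 : allFrom checkVChain 282624 1024 = true := by
  decide +kernel

theorem chain283648 : allFrom checkVChain 283648 1024 = true := by
  decide +kernel

theorem chain284672 : allFrom checkVChain 284672 1024 = true := by
  decide +kernel

theorem chain285696 : allFrom checkVChain 285696 1024 = true := by
  decide +kernel

end CfsgLib.Fi24Mult30.Tab
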