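import Cfsg.Agent.Fi24Mult30.Table

/-! Generated: checks of the voltages. -/

set_option autoImplicit false
set_option maxRecDepth 100000

namespace CfsgLib.Fi24Mult30.Tab

open CfsgLib.CosetEnum

theorem chain286720 : allFrom checkVChain 286720 1024 = true := by
  decide +kernel

theorem chain287744 : allFrom checkVChain 287744 1024 = true := by
  decide +kernel

theorem chain288768 : allFrom checkVChain 288768 1024 = true := by
  decide +kernel

theorem chain289792 : allFrom checkVChain 289792 1024 = true := by
  decide +kernel

theorem chain290816 : allFrom checkVChain 290816 1024 = true := by
  decide +kernel

theorem chain291840 : allFrom checkVChain 291840 1024 = true := by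
  decide +kernel

theorem chain292864 : allFrom checkVChain 292864 1024 = true := by
  decide +kernel

theorem chain293888 : allFrom checkVChain 293888 1024 = true := by
  decide +kernel

theorem chain294912 : allFrom checkVChain 294912 1024 = true := by
  decide +kernel

theorem chain295936 : allFrom checkVChain 295936 1024 = true := by
  decide +kernel

end CfsgLib.Fi24Mult30.Tab
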