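import Cfsg.Agent.Fi24Mult30.Table

/-! Generated: checks of the voltages. -/

set_option autoImplicit false
set_option maxRecDepth 100000

namespace CfsgLib.Fi24Mult30.Tab

open CfsgLib.CosetEnum

theorem chain296960 : allFrom checkVChain 296960 1024 = true := by
  decide +kernel

theorem chain297984 : allFrom checkVChain 297984 1024 = true := by
  decide +kernel

theorem chain299008 : allFrom checkVChain 299008 1024 = true := by
  decide +kernel

theorem chain300032 : allFrom checkVChain 300032 1024 = true := by
  decide +kernel

theorem chain301056 : allFrom checkVChain 301056 1024 = true := by
  decide +kernel

theorem chain302080 : allFrom checkVChain 302080 1024 = true := by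
  decide +kernel

theorem chain303104 : allFrom checkVChain 303104 1024 = true := by
  decide +kernel

theorem chain304128 : allFrom checkVChain 304128 1024 = true := by
  decide +kernel

theorem chain305152 : allFrom checkVChain 305152 1024 = true := by
  decide +kernel

theorem chain306176 : allFrom checkVChain 306176 760 = true := by
  decide +kernel

end CfsgLib.Fi24Mult30.Tab
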