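import Cfsg.Agent.Fi24Mult30.Table

/-! Generated: checks of the voltages. -/

set_option autoImplicit false
set_option maxRecDepth 100000

namespace CfsgLib.Fi24Mult30.Tab

open CfsgLib.CosetEnum

theorem chain30720 : allFrom checkVChain 30720 1024 = true := by
  decide +kernel

theorem chain31744 : allFrom checkVChain 31744 1024 = true := by
  decide +kernel

theorem chain32768 : allFrom checkVChain 32768 1024 = true := by
  decide +kernel

theorem chain33792 : allFrom checkVChain 33792 1024 = true := by
  decide +kernel

theorem chain34816 : allFrom checkVChain 34816 1024 = true := by
  decide +kernel

theorem chain35840 : allFrom checkVChain 35840 1024 = true := by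
  decide +kernel

theorem chain36864 : allFrom checkVChain 36864 1024 = true := by
  decide +kernel

theorem chain37888 : allFrom checkVChain 37888 1024 = true := by
  decide +kernel

theorem chain38912 : allFrom checkVChain 38912 1024 = true := by
  decide +kernel

theorem chain39936 : allFrom checkVChain 39936 1024 = true := by
  decide +kernel

end CfsgLib.Fi24Mult30.Tab
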