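import Cfsg.Agent.Fi24Mult30.Table

/-! Generated: checks of the voltages. -/

set_option autoImplicit false
set_option maxRecDepth 100000

namespace CfsgLib.Fi24Mult30.Tab

open CfsgLib.CosetEnum

theorem chain40960 : allFrom checkVChain 40960 1024 = true := by
  decide +kernel

theorem chain41984 : allFrom checkVChain 41984 1024 = true := by
  decide +kernel

theorem chain43008 : allFrom checkVChain 43008 1024 = true := by
  decide +kernel

theorem chain44032 : allFrom checkVChain 44032 1024 = true := by
  decide +kernel

theorem chain45056 : allFrom checkVChain 45056 1024 = true := by
  decide +kernel

theorem chain46080 : allFrom checkVChain 46080 1024 = true := by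
  decide +kernel

theorem chain47104 : allFrom checkVChain 47104 1024 = true := by
  decide +kernel

theorem chain48128 : allFrom checkVChain 48128 1024 = true := by
  decide +kernel

theorem chain49152 : allFrom checkVChain 49152 1024 = true := by
  decide +kernel

theorem chain50176 : allFrom checkVChain 50176 1024 = true := by
  decide +kernel

end CfsgLib.Fi24Mult30.Tab
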