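import Cfsg.Agent.Fi24Mult30.Table

/-! Generated: checks of the voltages. -/

set_option autoImplicit false
set_option maxRecDepth 100000

namespace CfsgLib.Fi24Mult30.Tab

open CfsgLib.CosetEnum

theorem chain51200 : allFrom checkVChain 51200 1024 = true := by
  decide +kernel

theorem chain52224 : allFrom checkVChain 52224 1024 = true := by
  decide +kernel

theorem chain53248 : allFrom checkVChain 53248 1024 = true := by
  decide +kernel

theorem chain54272 : allFrom checkVChain 54272 1024 = true := by
  decide +kernel

theorem chain55296 : allFrom checkVChain 55296 1024 = true := by
  decide +kernel

theorem chain56320 : allFrom checkVChain 56320 1024 = true := by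
  decide +kernel

theorem chain57344 : allFrom checkVChain 57344 1024 = true := by
  decide +kernel

theorem chain58368 : allFrom checkVChain 58368 1024 = true := by
  decide +kernel

theorem chain59392 : allFrom checkVChain 59392 1024 = true := by
  decide +kernel

theorem chain60416 : allFrom checkVChain 60416 1024 = true := by
  decide +kernel

end CfsgLib.Fi24Mult30.Tab
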