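import Cfsg.Agent.Fi24Mult30.Table

/-! Generated: checks of the voltages. -/

set_option autoImplicit false
set_option maxRecDepth 100000

namespace CfsgLib.Fi24Mult30.Tab

open CfsgLib.CosetEnum

theorem chain61440 : allFrom checkVChain 61440 1024 = true := by
  decide +kernel

theorem chain62464 : allFrom checkVChain 62464 1024 = true := by
  decide +kernel

theorem chain63488 : allFrom checkVChain 63488 1024 = true := by
  decide +kernel

theorem chain64512 : allFrom checkVChain 64512 1024 = true := by
  decide +kernel

theorem chain65536 : allFrom checkVChain 65536 1024 = true := by
  decide +kernel

theorem chain66560 : allFrom checkVChain 66560 1024 = true := by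
  decide +kernel

theorem chain67584 : allFrom checkVChain 67584 1024 = true := by
  decide +kernel

theorem chain68608 : allFrom checkVChain 68608 1024 = true := by
  decide +kernel

theorem chain69632 : allFrom checkVChain 69632 1024 = true := by
  decide +kernel

theorem chain70656 : allFrom checkVChain 70656 1024 = true := by
  decide +kernel

end CfsgLib.Fi24Mult30.Tab
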