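import Cfsg.Agent.Fi24Mult30.Table

/-! Generated: checks of the voltages. -/

set_option autoImplicit false
set_option maxRecDepth 100000

namespace CfsgLib.Fi24Mult30.Tab

open CfsgLib.CosetEnum

theorem chain71680 : allFrom checkVChain 71680 1024 = true := by
  decide +kernel

theorem chain72704 : allFrom checkVChain 72704 1024 = true := by
  decide +kernel

theorem chain73728 : allFrom checkVChain 73728 1024 = true := by
  decide +kernel

theorem chain74752 : allFrom checkVChain 74752 1024 = true := by
  decide +kernel

theorem chain75776 : allFrom checkVChain 75776 1024 = true := by
  decide +kernel

theorem chain76800 : allFrom checkVChain 76800 1024 = true := by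
  decide +kernel

theorem chain77824 : allFrom checkVChain 77824 1024 = true := by
  decide +kernel

theorem chain78848 : allFrom checkVChain 78848 1024 = true := by
  decide +kernel

theorem chain79872 : allFrom checkVChain 79872 1024 = true := by
  decide +kernel

theorem chain80896 : allFrom checkVChain 80896 1024 = true := by
  decide +kernel

end CfsgLib.Fi24Mult30.Tab
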