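import Cfsg.Agent.Fi24Mult30.Table

/-! Generated: checks of the voltages. -/

set_option autoImplicit false
set_option maxRecDepth 100000

namespace CfsgLib.Fi24Mult30.Tab

open CfsgLib.CosetEnum

theorem chain81920 : allFrom checkVChain 81920 1024 = true := by
  decide +kernel

theorem chain82944 : allFrom checkVChain 82944 1024 = true := by
  decide +kernel

theorem chain83968 : allFrom checkVChain 83968 1024 = true := by
  decide +kernel

theorem chain84992 : allFrom checkVChain 84992 1024 = true := by
  decide +kernel

theorem chain86016 : allFrom checkVChain 86016 1024 = true := by
  decide +kernel

theorem chain87040 : allFrom checkVChain 87040 1024 = true := by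
  decide +kernel

theorem chain88064 : allFrom checkVChain 88064 1024 = true := by
  decide +kernel

theorem chain89088 : allFrom checkVChain 89088 1024 = true := by
  decide +kernel

theorem chain90112 : allFrom checkVChain 90112 1024 = true := by
  decide +kernel

theorem chain91136 : allFrom checkVChain 91136 1024 = true := by
  decide +kernel

end CfsgLib.Fi24Mult30.Tab
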