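import Cfsg.Agent.Fi24Mult30.Table

/-! Generated: checks of the voltages. -/

set_option autoImplicit false
set_option maxRecDepth 100000

namespace CfsgLib.Fi24Mult30.Tab

open CfsgLib.CosetEnum

theorem chain92160 : allFrom checkVChain 92160 1024 = true := by
  decide +kernel

theorem chain93184 : allFrom checkVChain 93184 1024 = true := by
  decide +kernel

theorem chain94208 : allFrom checkVChain 94208 1024 = true := by
  decide +kernel

theorem chain95232 : allFrom checkVChain 95232 1024 = true := by
  decide +kernel

theorem chain96256 : allFrom checkVChain 96256 1024 = true := by
  decide +kernel

theorem chain97280 : allFrom checkVChain 97280 1024 = true := by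
  decide +kernel

theorem chain98304 : allFrom checkVChain 98304 1024 = true := by
  decide +kernel

theorem chain99328 : allFrom checkVChain 99328 1024 = true := by
  decide +kernel

theorem chain100352 : allFrom checkVChain 100352 1024 = true := by
  decide +kernel

theorem chain101376 : allFrom checkVChain 101376 1024 = true := by
  decide +kernel

end CfsgLib.Fi24Mult30.Tab
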